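import Mathlib
import Cfsg.Agent.PGroup.Frattini
import Cfsg.Agent.LowerCentral.Bracket

/-!
# Automorphisms of prime order with few fixed points: counting

An automorphism of order `p` with at most `N` fixed points leaves invariant only small abelian
subgroups of bounded exponent; hence a subgroup of bounded index, the common kernel of all
homomorphisms to a symmetric group of bounded degree, acts trivially on all such sections.
-/

set_option autoImplicit false
set_option linter.style.haveILetI false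

open scoped commutatorElement

namespace CfsgLib.AlperinFix

variable {G : Type*} [Group G]

/-- The fixed points of an automorphism. -/
def fixSub (α : MulAut G) : Subgroup G := α.toMonoidHom.eqLocus (MonoidHom.id G)

theorem mem_fixSub {α : MulAut G} {g : G} : g ∈ fixSub α ↔ α g = g := Iff.rfl

/-- Invariance of a subgroup. -/
def Invar (α : MulAut G) (H : Subgroup G) : Prop := ∀ x ∈ H, α x ∈ H

theorem invar_iff {α : MulAut G} {H : Subgroup G} : Invar α H ↔ H.map α.toMonoidHom ≤ H := by
  rw [Subgroup.map_le_iff_le_comap]; rfl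

theorem invar_of_characteristic (α : MulAut G) (H : Subgroup G) [H.Characteristic] : Invar α H :=
  invar_iff.mpr (Subgroup.characteristic_iff_map_le.mp inferInstance α)

theorem Invar.sup {α : MulAut G} {H K : Subgroup G} (hH : Invar α H) (hK : Invar α K) :
    Invar α (H ⊔ K) := by
  rw [invar_iff, Subgroup.map_sup]
  exact sup_le_sup (invar_iff.mp hH) (invar_iff.mp hK)

theorem Invar.commutator {α : MulAut G} {H K : Subgroup G} (hH : Invar α H) (hK : Invar α K) :
    Invar α ⁅H, K⁆ := by
  rw [invar_iff, Subgroup.map_commutator]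
  exact Subgroup.commutator_mono (invar_iff.mp hH) (invar_iff.mp hK)

theorem invar_top (α : MulAut G) : Invar α ⊤ := fun _ _ => trivial

theorem pow_apply_eq_iterate (α : MulAut G) (k : ℕ) (x : G) : (α ^ k) x = (⇑α)^[k] x := by
  induction k generalizing x with
  | zero => rfl
  | succ k ih => rw [pow_succ, MulAut.mul_apply, ih, ← Function.iterate_succ_apply]

variable [Finite G]

/-- The restriction of an automorphism to an invariant subgroup. -/
noncomputable def restr (α : MulAut G) (H : Subgroup G) (hH : Invar α H) : MulAut H :=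
  MulEquiv.ofBijective
    ({ toFun := fun x => ⟨α x, hH x x.2⟩
       map_one' := Subtype.ext (map_one α)
       map_mul' := fun x y => Subtype.ext (map_mul α (x : G) (y : G)) } : H →* H)
    (Finite.injective_iff_bijective.mp fun _ _ h =>
      Subtype.ext (α.injective (congrArg Subtype.val h :)))

theorem restr_apply (α : MulAut G) (H : Subgroup G) (hH : Invar α H) (x : H) :
    (restr α H hH x : G) = α x := rfl

theorem restr_pow_apply (α : MulAut G) (H : Subgroup G) (hH : Invar α H) (k : ℕ) (x : H) :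
    ((restr α H hH ^ k) x : G) = (α ^ k) x := by
  induction k generalizing x with
  | zero => rfl
  | succ k ih => rw [pow_succ, pow_succ, MulAut.mul_apply, MulAut.mul_apply, ih, restr_apply]

theorem restr_pow_eq_one {α : MulAut G} {k : ℕ} (hα : α ^ k = 1) (H : Subgroup G)
    (hH : Invar α H) : restr α H hH ^ k = 1 := by
  refine MulEquiv.ext fun x => Subtype.ext ?_
  rw [restr_pow_apply, hα]
  rfl

theorem card_fixSub_restr_le (α : MulAut G) (H : Subgroup G) (hH : Invar α H) :
    Nat.card (fixSub (restr α H hH)) ≤ Nat.card (fixSub α) := by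
  refine Nat.card_le_card_of_injective
    (fun x => (⟨((x : H) : G), (congrArg Subtype.val (mem_fixSub.mp x.2) :)⟩ : fixSub α)) ?_
  intro a b h
  exact Subtype.ext (Subtype.ext (congrArg Subtype.val h :))

/-- The automorphism induced on a quotient. -/
noncomputable def quot (α : MulAut G) (N : Subgroup G) [N.Normal] (hN : Invar α N) :
    MulAut (G ⧸ N) :=
  MulEquiv.ofBijective (QuotientGroup.map N N α.toMonoidHom hN)
    (Finite.surjective_iff_bijective.mp fun y => by
      obtain ⟨y, rfl⟩ := QuotientGroup.mk_surjective y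
      exact ⟨(α.symm y : G), by simp [QuotientGroup.map_mk]⟩)

theorem quot_mk (α : MulAut G) (N : Subgroup G) [N.Normal] (hN : Invar α N) (x : G) :
    quot α N hN (x : G ⧸ N) = (α x : G ⧸ N) := rfl

theorem quot_pow_mk (α : MulAut G) (N : Subgroup G) [N.Normal] (hN : Invar α N) (k : ℕ) (x : G) :
    (quot α N hN ^ k) (x : G ⧸ N) = ((α ^ k) x : G ⧸ N) := by
  induction k generalizing x with
  | zero => rfl
  | succ k ih => rw [pow_succ, pow_succ, MulAut.mul_apply, MulAut.mul_apply, quot_mk, ih]

theorem quot_pow_eq_one {α : MulAut G} {k : ℕ} (hα : α ^ k = 1) (N : Subgroup G) [N.Normal]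
    (hN : Invar α N) : quot α N hN ^ k = 1 := by
  refine MulEquiv.ext fun x => ?_
  obtain ⟨x, rfl⟩ := QuotientGroup.mk_surjective x
  rw [quot_pow_mk, hα]
  rfl

/-- There are no more fixed points in a quotient. -/
theorem card_fixSub_quot_le (α : MulAut G) (N : Subgroup G) [N.Normal] (hN : Invar α N) :
    Nat.card (fixSub (quot α N hN)) ≤ Nat.card (fixSub α) := by
  classical
  set S := (fixSub (quot α N hN)).comap (QuotientGroup.mk' N) with hS
  have hcard : Nat.card S = Nat.card (fixSub (quot α N hN)) * Nat.card N := by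
    have h1 := Subgroup.card_mul_index S
    have h2 : S.index = (fixSub (quot α N hN)).index :=
      Subgroup.index_comap_of_surjective _ (QuotientGroup.mk'_surjective N)
    have h3 := Subgroup.card_mul_index (fixSub (quot α N hN))
    have h4 := Subgroup.card_eq_card_quotient_mul_card_subgroup N
    rw [h4, ← h3, h2] at h1
    refine Nat.eq_of_mul_eq_mul_right
      (Nat.pos_of_ne_zero (Subgroup.index_ne_zero_of_finite (H := fixSub (quot α N hN)))) ?_
    rw [h1]
    ring
  have hmem : ∀ x : S, (x : G)⁻¹ * α x ∈ N := fun x => by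
    have h : (α x : G ⧸ N) = ((x : G) : G ⧸ N) := x.2
    exact QuotientGroup.eq.mp h.symm
  let f : S → N := fun x => ⟨(x : G)⁻¹ * α x, hmem x⟩
  let g : S → fixSub α := fun x =>
    ⟨(x : G) * ((Function.invFun f (f x) : S) : G)⁻¹, by
      set y := Function.invFun f (f x) with hy
      have he : (y : G)⁻¹ * α y = (x : G)⁻¹ * α x :=
        congrArg Subtype.val (Function.invFun_eq (f := f) ⟨x, rfl⟩ :)
      have he' : α y = (y : G) * ((x : G)⁻¹ * α x) := by rw [← he]; group
      rw [mem_fixSub, map_mul, map_inv, he']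
      group⟩
  have hinj : Function.Injective (fun x : S => (g x, f x)) := by
    intro a b h
    have h2 : f a = f b := congrArg Prod.snd h
    have h1 := congrArg Subtype.val (congrArg Prod.fst h :)
    simp only [g, h2] at h1
    exact Subtype.ext (mul_right_cancel h1)
  have hle := Nat.card_le_card_of_injective _ hinj
  rw [Nat.card_prod, hcard] at hle
  exact Nat.le_of_mul_le_mul_right hle Nat.card_pos

omit [Finite G] in
theorem pow_mem_of_dvd {N : Subgroup G} [N.Normal] {x : G} {a b : ℕ} (hx : x ^ a ∈ N) (h : a ∣ b) :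
    x ^ b ∈ N := by
  obtain ⟨c, rfl⟩ := h
  rw [pow_mul]
  exact pow_mem hx c

/-- In a `p`-group, a coset fixed by the automorphism has order at most `p ^ n`. -/
theorem pow_mem_of_fixed_coset {p n : ℕ} [hp : Fact p.Prime] (hG : IsPGroup p G) (α : MulAut G)
    (hn : Nat.card (fixSub α) ≤ p ^ n) (N : Subgroup G) [N.Normal] (hN : Invar α N) {x : G}
    (hx : x⁻¹ * α x ∈ N) : x ^ p ^ n ∈ N := by
  obtain ⟨j, hj⟩ := IsPGroup.iff_card.mp ((hG.to_quotient N).to_subgroup (fixSub (quot α N hN)))
  have hjn : j ≤ n := (Nat.pow_le_pow_iff_right hp.out.one_lt).mp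
    (hj ▸ (card_fixSub_quot_le α N hN).trans hn)
  have hxF : (x : G ⧸ N) ∈ fixSub (quot α N hN) :=
    mem_fixSub.mpr ((quot_mk α N hN x).trans (QuotientGroup.eq.mpr hx).symm)
  have h1 : (x : G ⧸ N) ^ p ^ j = 1 := by
    have := congrArg Subtype.val
      (pow_card_eq_one' (G := fixSub (quot α N hN)) (x := ⟨_, hxF⟩) :)
    simpa [hj] using this
  refine pow_mem_of_dvd ?_ (pow_dvd_pow p hjn)
  rw [← QuotientGroup.eq_one_iff, QuotientGroup.mk_pow]
  exact h1

/-! ### Abelian sections -/

section Additive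

variable {A : Type*} [AddCommGroup A]

/-- The size of the kernel of an endomorphism. -/
noncomputable def kerCard (f : AddMonoid.End A) : ℕ := Nat.card {x : A // f x = 0}

variable [Finite A]

theorem kerCard_mul_le (f g : AddMonoid.End A) : kerCard (g * f) ≤ kerCard g * kerCard f := by
  classical
  haveI : Nonempty {x : A // (g * f) x = 0} := ⟨⟨0, map_zero _⟩⟩
  let u : {x : A // (g * f) x = 0} → {x : A // g x = 0} := fun x => ⟨f x.1, x.2⟩
  let w : {x : A // (g * f) x = 0} → {x : A // f x = 0} := fun x =>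
    ⟨x.1 - (Function.invFun u (u x)).1, by
      rw [map_sub, sub_eq_zero]
      exact (congrArg Subtype.val (Function.invFun_eq (f := u) ⟨x, rfl⟩ :)).symm⟩
  have hinj : Function.Injective (fun x => (u x, w x)) := by
    intro a b h
    have h1 : u a = u b := congrArg Prod.fst h
    have h2 := congrArg Subtype.val (congrArg Prod.snd h :)
    simp only [w, h1] at h2
    exact Subtype.ext (sub_left_injective h2)
  have := Nat.card_le_card_of_injective _ hinj
  rwa [Nat.card_prod] at this

theorem kerCard_pow_le (f : AddMonoid.End A) (k : ℕ) : kerCard (f ^ k) ≤ kerCard f ^ k := by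
  induction k with
  | zero =>
    rw [pow_zero, pow_zero, kerCard, Finite.card_le_one_iff_subsingleton]
    exact ⟨fun a b => Subtype.ext ((show a.1 = 0 from a.2).trans (show b.1 = 0 from b.2).symm)⟩
  | succ k ih =>
    rw [pow_succ, pow_succ]
    exact (kerCard_mul_le _ _).trans (Nat.mul_le_mul_right _ ih)

theorem card_le_of_pow_eq_one {p : ℕ} [hp : Fact p.Prime] (a : AddMonoid.End A) (ha : a ^ p = 1)
    {N : ℕ} (hN : Nat.card {x : A // a x = x} ≤ N) {e : ℕ} (he : ∀ x : A, p ^ e • x = 0) :
    Nat.card A ≤ N ^ (p * e) := by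
  obtain ⟨R, hR⟩ : ∃ R : AddMonoid.End A, (a + -1) ^ p = (p : AddMonoid.End A) * R := by
    obtain ⟨r, hr⟩ := Commute.exists_add_pow_prime_eq (x := a) (y := -1) hp.out
      (Commute.neg_one_right a)
    rw [hr, ha]
    rcases hp.out.eq_two_or_odd' with rfl | hodd
    · exact ⟨1 + a * -1 * r, by
        rw [neg_one_sq, one_add_one_eq_two, mul_add, mul_one, Nat.cast_ofNat]
        simp only [mul_assoc]⟩
    · exact ⟨a * -1 * r, by rw [hodd.neg_one_pow, add_neg_cancel, zero_add]; noncomm_ring⟩
  have hδ : kerCard (a + -1) ≤ N := by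
    refine le_trans (le_of_eq (Nat.card_congr (Equiv.subtypeEquivRight fun x => ?_))) hN
    show a x + -x = 0 ↔ a x = x
    rw [← sub_eq_add_neg, sub_eq_zero]
  have hp1 : kerCard (p : AddMonoid.End A) ≤ N ^ p := by
    refine le_trans ?_ ((kerCard_pow_le _ p).trans (Nat.pow_le_pow_left hδ p))
    refine Nat.card_le_card_of_injective (fun x => ⟨x.1, ?_⟩) ?_
    · rw [hR, (Nat.cast_commute p R).eq]
      show R ((p : AddMonoid.End A) x.1) = 0
      rw [x.2, map_zero]
    · exact fun u v h => Subtype.ext (congrArg Subtype.val h :)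
  have h0 : kerCard ((p : AddMonoid.End A) ^ e) = Nat.card A := by
    refine Nat.card_congr (Equiv.subtypeUnivEquiv fun x => ?_)
    rw [← Nat.cast_pow]
    exact he x
  rw [← h0, pow_mul]
  exact (kerCard_pow_le _ e).trans (Nat.pow_le_pow_left hp1 e)

end Additive

/-- An invariant abelian subgroup of exponent dividing `p ^ e` has order at most `N ^ (p * e)`. -/
theorem card_le_of_abelian {p : ℕ} [Fact p.Prime] {α : MulAut G} (hα : α ^ p = 1) {N : ℕ}
    (hN : Nat.card (fixSub α) ≤ N) (H : Subgroup G) (hH : Invar α H)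
    (hab : ∀ x ∈ H, ∀ y ∈ H, x * y = y * x) {e : ℕ} (hexp : ∀ x ∈ H, x ^ p ^ e = 1) :
    Nat.card H ≤ N ^ (p * e) := by
  letI : CommGroup H :=
    { (inferInstance : Group H) with mul_comm := fun u v => Subtype.ext (hab u u.2 v v.2) }
  let a : AddMonoid.End (Additive H) := MonoidHom.toAdditive (restr α H hH).toMonoidHom
  have hiter : ∀ (k : ℕ) (x : Additive H),
      (a ^ k) x = Additive.ofMul ((restr α H hH ^ k) x.toMul) := by
    intro k
    induction k with
    | zero => intro x; rfl
    | succ k ih =>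
      intro x
      rw [pow_succ, pow_succ, MulAut.mul_apply]
      exact ih (a x)
  have ha : a ^ p = 1 := by
    refine DFunLike.ext _ _ fun x => ?_
    rw [hiter, restr_pow_eq_one hα]
    rfl
  have hcard := card_le_of_pow_eq_one a ha (N := N) ?_ (e := e) ?_
  · exact hcard
  · exact (card_fixSub_restr_le α H hH).trans hN
  · intro x
    exact Subtype.ext (hexp _ (Additive.toMul x).2)

/-! ### The common kernel of the homomorphisms to a symmetric group -/

section KerAll

variable (P : Type*) [Group P]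

/-- The common kernel of all homomorphisms to the symmetric group of degree `m`. -/
def kerAll (m : ℕ) : Subgroup P := ⨅ f : P →* Equiv.Perm (Fin m), f.ker

instance kerAll_normal (m : ℕ) : (kerAll P m).Normal :=
  Subgroup.normal_iInf_normal fun _ => inferInstance

variable {P}

theorem invar_kerAll (α : MulAut P) (m : ℕ) : Invar α (kerAll P m) := by
  intro x hx
  rw [kerAll, Subgroup.mem_iInf] at hx ⊢
  exact fun f => hx (f.comp α.toMonoidHom)

theorem index_kerAll_le [Finite P] {r : ℕ} (x : Fin r → P)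
    (hx : Subgroup.closure (Set.range x) = ⊤) (m : ℕ) :
    (kerAll P m).index ≤ m.factorial ^ (m.factorial ^ r) := by
  classical
  haveI : Finite (P →* Equiv.Perm (Fin m)) := Finite.of_injective _ DFunLike.coe_injective
  letI := Fintype.ofFinite (P →* Equiv.Perm (Fin m))
  have hS : Nat.card (Equiv.Perm (Fin m)) = m.factorial := by
    rw [Nat.card_eq_fintype_card, Fintype.card_perm, Fintype.card_fin]
  have hhom : Fintype.card (P →* Equiv.Perm (Fin m)) ≤ m.factorial ^ r := by
    rw [← Nat.card_eq_fintype_card]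
    calc Nat.card (P →* Equiv.Perm (Fin m))
        ≤ Nat.card (Fin r → Equiv.Perm (Fin m)) :=
          Nat.card_le_card_of_injective (fun f => f ∘ x) fun f g h =>
            MonoidHom.eq_of_eqOn_dense hx (by
              rintro _ ⟨i, rfl⟩
              exact congrFun h i)
      _ = m.factorial ^ r := by rw [Nat.card_fun, Nat.card_fin, hS]
  refine (Subgroup.index_iInf_le _).trans ((Finset.prod_le_pow_card _ _ m.factorial fun f _ => ?_).trans
    (Nat.pow_le_pow_right m.factorial_pos hhom))
  rw [Subgroup.index_ker]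
  exact (Subgroup.card_le_card_group _).trans hS.le

/-- The kernel acts trivially on every normal subgroup of order at most `m` of every group. -/
theorem commute_of_card_le {Q : Type*} [Group Q] (φ : P →* Q) (V : Subgroup Q) [V.Normal]
    [Finite V] {m : ℕ} (hm : Nat.card V ≤ m) {w : P} (hw : w ∈ kerAll P m) :
    ∀ v ∈ V, φ w * v = v * φ w := by
  intro v hv
  let e : V ↪ Fin m := (Finite.equivFin V).toEmbedding.trans (Fin.castLEEmb hm)
  let t : MulAut V →* Equiv.Perm V := MulAut.toPerm V
  let u : P →* MulAut V := MulAut.conjNormal.comp φ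
  let f : P →* Equiv.Perm (Fin m) := (Equiv.Perm.viaEmbeddingHom e).comp (t.comp u)
  have h1 : f w = 1 := (Subgroup.mem_iInf.mp hw) f
  have h2 : t (u w) = 1 := Equiv.Perm.viaEmbeddingHom_injective e (h1.trans (map_one _).symm)
  have h3 : ((MulAut.conjNormal (φ w) ⟨v, hv⟩ : V) : Q) = v :=
    congrArg Subtype.val (Equiv.ext_iff.mp h2 ⟨v, hv⟩)
  rw [MulAut.conjNormal_apply] at h3
  exact mul_inv_eq_iff_eq_mul.mp h3

end KerAll

/-! ### Powers -/

/-- The subgroup generated by the `q`-th powers in a subgroup. -/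
def powSub (M : Subgroup G) (q : ℕ) : Subgroup G := Subgroup.closure ((fun x => x ^ q) '' M)

omit [Finite G] in
theorem pow_mem_powSub {M : Subgroup G} {q : ℕ} {x : G} (hx : x ∈ M) : x ^ q ∈ powSub M q :=
  Subgroup.subset_closure ⟨x, hx, rfl⟩

omit [Finite G] in
theorem powSub_le (M : Subgroup G) (q : ℕ) : powSub M q ≤ M := by
  rw [powSub, Subgroup.closure_le]
  rintro _ ⟨x, hx, rfl⟩
  exact pow_mem hx q

omit [Finite G] in
theorem invar_powSub {α : MulAut G} {M : Subgroup G} (hM : Invar α M) (q : ℕ) :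
    Invar α (powSub M q) := by
  rw [invar_iff, powSub, MonoidHom.map_closure, Subgroup.closure_le]
  rintro _ ⟨_, ⟨x, hx, rfl⟩, rfl⟩
  show α (x ^ q) ∈ _
  rw [map_pow]
  exact pow_mem_powSub (hM x hx)

instance powSub_normal (M : Subgroup G) [M.Normal] (q : ℕ) : (powSub M q).Normal := by
  refine ⟨fun z hz g => ?_⟩
  have h := invar_powSub (α := MulAut.conj g)
    (fun x hx => by simpa using (inferInstance : M.Normal).conj_mem x hx g) q z hz
  simpa using h

/-- A nontrivial normal subgroup of a nilpotent group meets the centre. -/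
theorem exists_central_le [Group.IsNilpotent G] (M : Subgroup G) [M.Normal] (hM : M ≠ ⊥) :
    M ⊓ Subgroup.center G ≠ ⊥ := by
  obtain ⟨L, -, ⟨hLn, hLM, hLb⟩, hmin⟩ := Finite.exists_le_minimal
    (p := fun L : Subgroup G => L.Normal ∧ L ≤ M ∧ L ≠ ⊥) (a := M) ⟨inferInstance, le_rfl, hM⟩
  have hc : ⁅L, (⊤ : Subgroup G)⁆ = ⊥ := by
    by_contra hne
    have hle : ⁅L, (⊤ : Subgroup G)⁆ ≤ L := Subgroup.commutator_le_left L ⊤
    exact hLb (CfsgLib.LowerCentral.eq_bot_of_le_commutator_top
      (hmin ⟨inferInstance, hle.trans hLM, hne⟩ hle))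
  intro h
  apply hLb
  rw [eq_bot_iff, ← h]
  refine le_inf hLM fun z hz => Subgroup.mem_center_iff.mpr fun g => ?_
  have : ⁅z, g⁆ = 1 := by
    rw [← Subgroup.mem_bot, ← hc]
    exact Subgroup.commutator_mem_commutator hz trivial
  exact (commutatorElement_eq_one_iff_mul_comm.mp this).symm

/-- A fixed point in the centre, inside a given invariant normal subgroup. -/
theorem exists_fixed_central {p : ℕ} [hp : Fact p.Prime] (hG : IsPGroup p G) {α : MulAut G}
    (hα : α ^ p = 1) (M : Subgroup G) [M.Normal] (hM : Invar α M) (hne : M ≠ ⊥) :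
    ∃ z ∈ M, z ∈ Subgroup.center G ∧ α z = z ∧ z ≠ 1 := by
  classical
  haveI := hG.isNilpotent
  set Z := M ⊓ Subgroup.center G with hZ
  have hZi : Invar α Z := fun x hx =>
    ⟨hM x hx.1, invar_of_characteristic α (Subgroup.center G) x hx.2⟩
  haveI : Nontrivial Z := (Subgroup.nontrivial_iff_ne_bot Z).mpr (exists_central_le M hne)
  letI := Fintype.ofFinite Z
  obtain ⟨k, hk⟩ := IsPGroup.iff_card.mp (hG.to_subgroup Z)
  have hk0 : k ≠ 0 := by
    rintro rfl
    rw [pow_zero] at hk
    exact (Finite.one_lt_card (α := Z)).ne' hk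
  have hdvd : p ∣ Fintype.card Z := by
    rw [← Nat.card_eq_fintype_card, hk]
    exact dvd_pow_self p hk0
  let σ : Equiv.Perm Z := MulAut.toPerm Z (restr α Z hZi)
  have hσ : σ ^ p ^ 1 = 1 := by
    rw [pow_one, ← map_pow, restr_pow_eq_one hα, map_one]
  obtain ⟨b, hb, hb1⟩ := Equiv.Perm.exists_fixed_point_of_prime' hdvd hσ (a := (1 : Z))
    (map_one (restr α Z hZi))
  exact ⟨b, b.2.1, b.2.2, (congrArg Subtype.val hb :), fun h => hb1 (Subtype.ext h)⟩

/-- The kernel pushes a normal invariant subgroup inside it into its `p ^ e`-th powers. -/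
theorem comm_le_pow {p : ℕ} [Fact p.Prime] (hG : IsPGroup p G) {α : MulAut G} (hα : α ^ p = 1)
    {N : ℕ} (hN : Nat.card (fixSub α) ≤ N) {e m : ℕ} (hm : N ^ (p * e) ≤ m) (M : Subgroup G)
    [M.Normal] (hM : Invar α M) (hMW : M ≤ kerAll G m) :
    ⁅M, kerAll G m⁆ ≤ powSub M (p ^ e) := by
  haveI := hG.isNilpotent
  set W := kerAll G m
  set Pw := powSub M (p ^ e) with hPw
  set X := ⁅M, W⁆ ⊔ Pw with hX
  by_contra hcon
  have hPwX : Pw < X := lt_of_le_of_ne le_sup_right fun h => hcon (h ▸ le_sup_left)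
  have hXi : Invar α X := (hM.commutator (invar_kerAll α m)).sup (invar_powSub hM _)
  have hXM : X ≤ M := sup_le (Subgroup.commutator_le_left M W) (powSub_le M _)
  obtain ⟨Y, -, ⟨hYn, hYi, hPY, hYX⟩, hYmax⟩ := Finite.exists_le_maximal
    (p := fun Y : Subgroup G => Y.Normal ∧ Invar α Y ∧ Pw ≤ Y ∧ Y < X) (a := Pw)
    ⟨inferInstance, invar_powSub hM _, le_rfl, hPwX⟩
  have hXY : ⁅X, (⊤ : Subgroup G)⁆ ≤ Y := by
    rcases eq_or_lt_of_le (sup_le (Subgroup.commutator_le_left X ⊤) hYX.le) with h | h
    · exfalso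
      apply not_le_of_gt hYX
      have h' : X.map (QuotientGroup.mk' Y) ≤
          ⁅X.map (QuotientGroup.mk' Y), (⊤ : Subgroup (G ⧸ Y))⁆ := by
        conv_lhs => rw [← h]
        rw [Subgroup.map_sup, Subgroup.map_commutator,
          Subgroup.map_top_of_surjective _ (QuotientGroup.mk'_surjective Y),
          (Subgroup.map_eq_bot_iff Y).mpr (QuotientGroup.ker_mk' Y).ge, sup_bot_eq]
      have h'' := CfsgLib.LowerCentral.eq_bot_of_le_commutator_top h'
      rwa [Subgroup.map_eq_bot_iff, QuotientGroup.ker_mk'] at h''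
    · exact le_sup_left.trans (hYmax ⟨inferInstance, (hXi.commutator (invar_top α)).sup hYi,
        hPY.trans le_sup_right, h⟩ le_sup_right)
  obtain ⟨N0, -, ⟨hn0, hi0, hX0, h0M, h0W⟩, h0max⟩ := Finite.exists_le_maximal
    (p := fun L : Subgroup G => L.Normal ∧ Invar α L ∧ X ≤ L ∧ L ≤ M ∧ ⁅L, W⁆ ≤ Y) (a := X)
    ⟨inferInstance, hXi, le_rfl, hXM, (Subgroup.commutator_mono le_rfl le_top).trans hXY⟩
  have hne : M.map (QuotientGroup.mk' N0) ≠ ⊥ := by
    rw [Ne, Subgroup.map_eq_bot_iff, QuotientGroup.ker_mk']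
    intro h
    exact not_le_of_gt hYX (sup_le ((Subgroup.commutator_mono h le_rfl).trans h0W) hPY)
  haveI : (M.map (QuotientGroup.mk' N0)).Normal :=
    Subgroup.Normal.map inferInstance _ (QuotientGroup.mk'_surjective N0)
  have hMb : Invar (quot α N0 hi0) (M.map (QuotientGroup.mk' N0)) := by
    rintro _ ⟨x, hx, rfl⟩
    exact ⟨α x, hM x hx, rfl⟩
  obtain ⟨b, hbM, hbc, hbf, hb1⟩ := exists_fixed_central (hG.to_quotient N0)
    (quot_pow_eq_one hα N0 hi0) _ hMb hne
  obtain ⟨g, hgM, rfl⟩ := hbM
  haveI : (Subgroup.zpowers (QuotientGroup.mk' N0 g)).Normal := by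
    refine ⟨fun x hx y => ?_⟩
    have hxc : x ∈ Subgroup.center (G ⧸ N0) := Subgroup.zpowers_le.mpr hbc hx
    rw [Subgroup.mem_center_iff.mp hxc y, mul_inv_cancel_right]
    exact hx
  set N1 := (Subgroup.zpowers (QuotientGroup.mk' N0 g)).comap (QuotientGroup.mk' N0) with hN1
  have h01 : N0 ≤ N1 := fun x hx => by
    rw [hN1, Subgroup.mem_comap, show QuotientGroup.mk' N0 x = 1 from
      (QuotientGroup.eq_one_iff x).mpr hx]
    exact one_mem _
  have hdec : ∀ x ∈ N1, ∃ k : ℤ, ∃ n ∈ N0, x = g ^ k * n := by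
    intro x hx
    obtain ⟨k, hk⟩ := Subgroup.mem_zpowers_iff.mp (Subgroup.mem_comap.mp hx)
    rw [← map_zpow] at hk
    exact ⟨k, (g ^ k)⁻¹ * x, QuotientGroup.eq.mp hk, by group⟩
  have h1M : N1 ≤ M := fun x hx => by
    obtain ⟨k, n, hn, rfl⟩ := hdec x hx
    exact mul_mem (zpow_mem hgM k) (h0M hn)
  have h1i : Invar α N1 := fun x hx => by
    obtain ⟨k, hk⟩ := Subgroup.mem_zpowers_iff.mp (Subgroup.mem_comap.mp hx)
    refine Subgroup.mem_comap.mpr (Subgroup.mem_zpowers_iff.mpr ⟨k, ?_⟩)
    have h := congrArg (quot α N0 hi0) hk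
    rw [map_zpow, hbf] at h
    exact h
  have hρc : ∀ x ∈ N0, ∀ w ∈ W, Commute (QuotientGroup.mk' Y x) (QuotientGroup.mk' Y w) := by
    intro x hx w hw
    refine commutatorElement_eq_one_iff_mul_comm.mp ?_
    rw [← map_commutatorElement, QuotientGroup.mk'_apply, QuotientGroup.eq_one_iff]
    exact h0W (Subgroup.commutator_mem_commutator hx hw)
  have hab : ∀ x ∈ N1, ∀ y ∈ N1, Commute (QuotientGroup.mk' Y x) (QuotientGroup.mk' Y y) := by
    intro x hx y hy
    obtain ⟨k, n, hn, rfl⟩ := hdec x hx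
    obtain ⟨l, n', hn', rfl⟩ := hdec y hy
    rw [map_mul, map_mul, map_zpow, map_zpow]
    have hg := fun z (hz : z ∈ N0) => (hρc z hz g (hMW hgM)).symm
    refine Commute.mul_left (Commute.mul_right ?_ ((hg n' hn').zpow_left k))
      (Commute.mul_right ((hg n hn).symm.zpow_right l) ?_)
    · exact (Commute.refl _).zpow_zpow k l
    · exact hρc n hn n' (hMW (h0M hn'))
  set V := N1.map (QuotientGroup.mk' Y) with hV
  haveI : V.Normal := Subgroup.Normal.map inferInstance _ (QuotientGroup.mk'_surjective Y)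
  have hVi : Invar (quot α Y hYi) V := by
    rintro _ ⟨x, hx, rfl⟩
    exact ⟨α x, h1i x hx, rfl⟩
  have hVcard : Nat.card V ≤ N ^ (p * e) := by
    refine card_le_of_abelian (quot_pow_eq_one hα Y hYi)
      ((card_fixSub_quot_le α Y hYi).trans hN) V hVi ?_ ?_
    · rintro _ ⟨x, hx, rfl⟩ _ ⟨y, hy, rfl⟩
      exact hab x hx y hy
    · rintro _ ⟨x, hx, rfl⟩
      rw [← map_pow, QuotientGroup.mk'_apply, QuotientGroup.eq_one_iff]
      exact hPY (pow_mem_powSub (h1M hx))
  have h1W : ⁅N1, W⁆ ≤ Y := by
    rw [Subgroup.commutator_le]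
    intro x hx w hw
    rw [← QuotientGroup.eq_one_iff, ← QuotientGroup.mk'_apply, map_commutatorElement,
      commutatorElement_eq_one_iff_mul_comm]
    exact (commute_of_card_le (QuotientGroup.mk' Y) V (hVcard.trans hm) hw _ ⟨x, hx, rfl⟩).symm
  have h10 : N1 ≤ N0 :=
    h0max ⟨inferInstance, h1i, hX0.trans h01, h1M, h1W⟩ h01
  exact hb1 ((QuotientGroup.eq_one_iff g).mpr
    (h10 (Subgroup.mem_comap.mpr (Subgroup.mem_zpowers _))))

end CfsgLib.AlperinFix
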