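import Mathlib
import Cfsg.Agent.LieFPF.Bound
import Cfsg.Agent.AlperinFix.Count

/-!
# The Lie ring of a `p`-group with an automorphism of order `p` with few fixed points

The multiples of the eigen-components by a large power of `p` form a graded family with trivial
zero component, so the Higman–Kreknin–Kostrikin bound gives the vanishing of a power of a term of
the lower central series modulo the next one.
-/

set_option autoImplicit false

open scoped TensorProduct DirectSum commutatorElement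

namespace CfsgLib.AlperinFix

open CfsgLib.LieFPF

/-- The Higman–Kreknin–Kostrikin number. -/
def hkk (p : ℕ) : ℕ := ∑ i ∈ Finset.range (2 ^ (p - 1) - 1), (p - 1) ^ i

variable {p n : ℕ} [hp : Fact p.Prime] {G : Type*} [Group G]

theorem sec_pow {k : ℕ} {g : G} (hg : g ∈ lcsT G k) : ∀ j : ℕ, sec k (g ^ j) = j • sec k g := by
  intro j
  induction j with
  | zero => rw [pow_zero, sec_one, zero_nsmul]
  | succ j ih => rw [pow_succ, sec_mul (pow_mem hg j) hg, ih, succ_nsmul]

/-- The multiples of the eigen-components. -/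
noncomputable def scaled (n : ℕ) (α : MulAut G) : Fam p (Cyc p ⊗[ℤ] Assoc G) := fun i =>
  (comp α i).map (DistribSMul.toAddMonoidHom (Cyc p ⊗[ℤ] Assoc G) ((p ^ n * p : ℕ) : Cyc p))

variable [Finite G] (hG : IsPGroup p G) (α : MulAut G) (hα : α ^ p = 1)
  (hn : Nat.card (fixSub α) ≤ p ^ n)
include hG hα hn

/-- The norm on the Lie ring is killed by `p ^ n`. -/
theorem nsmul_sum_endo_eq_zero (x : Assoc G) :
    p ^ n • ∑ i ∈ Finset.range p, (⇑(endo α))^[i] x = 0 := by
  refine induction_sec x ?_ (fun a b ha hb => ?_) fun k g hg => ?_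
  · rw [Finset.sum_eq_zero fun i _ => Function.iterate_fixed (map_zero _) i, nsmul_zero]
  · simp only [endo_iterate_add, Finset.sum_add_distrib, nsmul_add, ha, hb, add_zero]
  have hpart : ∀ j : ℕ, ∃ y ∈ lcsT G k,
      ∑ i ∈ Finset.range j, (⇑(endo α))^[i] (sec k g) = sec k y := by
    intro j
    induction j with
    | zero => exact ⟨1, one_mem _, by simp [sec_one]⟩
    | succ j ih =>
      obtain ⟨y, hy, hsum⟩ := ih
      have hj : (α ^ j) g ∈ lcsT G k := apply_mem_lcsT _ hg
      exact ⟨y * (α ^ j) g, mul_mem hy hj, by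
        rw [Finset.sum_range_succ, hsum, endo_pow α j hg, sec_mul hy hj]⟩
  obtain ⟨y, hy, hsum⟩ := hpart p
  have hfix : endo α (sec k y) = sec k y := by
    rw [← hsum, map_sum]
    simp only [← Function.iterate_succ_apply' (⇑(endo α))]
    have h1 := Finset.sum_range_succ' (fun i => (⇑(endo α))^[i] (sec k g)) p
    rw [Finset.sum_range_succ, endo_iterate_self α hα, Function.iterate_zero_apply] at h1
    exact (add_right_cancel h1).symm
  rw [hsum, ← sec_pow hy]
  refine sec_eq_zero (pow_mem_of_fixed_coset hG α hn (lcsT G (k + 1))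
    (fun z hz => apply_mem_lcsT α hz) (mem_of_sec_eq_zero
      (mul_mem (inv_mem hy) (apply_mem_lcsT α hy)) ?_))
  rw [sec_mul (inv_mem hy) (apply_mem_lcsT α hy), sec_inv hy, ← endo_sec α hy, hfix,
    neg_add_cancel]

/-- A fixed vector of the extended ring is killed by `p ^ n * p`. -/
theorem smul_eq_zero_of_fixed (x : Cyc p ⊗[ℤ] Assoc G) (hx : extEndo α x = x) :
    ((p ^ n * p : ℕ) : Cyc p) • x = 0 := by
  have hsum : p ^ n • ∑ i ∈ Finset.range p, (⇑(extEndo α))^[i] x = 0 := by
    clear hx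
    induction x using TensorProduct.induction_on with
    | zero => rw [Finset.sum_eq_zero fun i _ => extEndo_iterate_zero α i, nsmul_zero]
    | add a b ha hb =>
      simp only [extEndo_iterate_add, Finset.sum_add_distrib, nsmul_add, ha, hb, add_zero]
    | tmul r a =>
      simp only [extEndo_iterate_tmul, ← TensorProduct.tmul_sum, ← TensorProduct.tmul_smul,
        nsmul_sum_endo_eq_zero hG α hα hn a, TensorProduct.tmul_zero]
  rw [Finset.sum_congr rfl (fun i _ => Function.iterate_fixed hx i), Finset.sum_const,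
    Finset.card_range, ← mul_nsmul'] at hsum
  rw [Nat.cast_smul_eq_nsmul]
  exact hsum

theorem isGraded_scaled : IsGraded (scaled (p := p) n α) := by
  refine ⟨fun {i j x y} hx hy => ?_, ?_⟩
  · obtain ⟨x, hx, rfl⟩ := hx
    obtain ⟨y, hy, rfl⟩ := hy
    refine ⟨⁅((p ^ n * p : ℕ) : Cyc p) • x, y⁆, ?_, ?_⟩
    · have hx' : extEndo α x = rootPow i • x := hx
      have hy' : extEndo α y = rootPow j • y := hy
      rw [SetLike.mem_coe, mem_comp, extEndo_lie, map_smul, hx', hy', smul_comm _ (rootPow i), ext_smul_lie, ext_lie_smul,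
        smul_smul, rootPow_add]
    · simp only [DistribSMul.toAddMonoidHom_apply]
      exact (ext_lie_smul _ _ y).symm
  · rw [AddSubgroup.eq_bot_iff_forall]
    rintro _ ⟨x, hx, rfl⟩
    have hx' : extEndo α x = rootPow 0 • x := mem_comp.mp hx
    rw [rootPow_zero, one_smul] at hx'
    exact smul_eq_zero_of_fixed hG α hα hn x hx'

omit [Finite G] hG hn in
theorem ext_iterate_eq_self (x : Cyc p ⊗[ℤ] Assoc G) : (⇑(extEndo α))^[p] x = x := by
  induction x using TensorProduct.induction_on with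
  | zero => exact extEndo_iterate_zero α p
  | add a b ha hb => rw [extEndo_iterate_add, ha, hb]
  | tmul r a => rw [extEndo_iterate_tmul, endo_iterate_self α hα]

omit [Finite G] hG hn in
theorem smul_mem_iSup_comp (x : Cyc p ⊗[ℤ] Assoc G) : (p : Cyc p) • x ∈ ⨆ i, comp α i := by
  have hper : ∀ i : ZMod p,
      extEndo α ((⇑(extEndo α))^[i.val] x) = (⇑(extEndo α))^[(i + 1).val] x := by
    intro i
    rw [← Function.iterate_succ_apply' (⇑(extEndo α)), ZMod.val_add, ZMod.val_one]
    rcases Nat.lt_or_ge (i.val + 1) p with h | h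
    · rw [Nat.mod_eq_of_lt h]
    · have hi : i.val + 1 = p := by have := i.val_lt; omega
      rw [Nat.succ_eq_add_one, hi, Nat.mod_self, ext_iterate_eq_self α hα x]
      rfl
  let π : ZMod p → Cyc p ⊗[ℤ] Assoc G := fun j =>
    ∑ i : ZMod p, rootPow (-(j * i)) • (⇑(extEndo α))^[i.val] x
  have hπ : ∀ j, π j ∈ comp α j := by
    intro j
    rw [mem_comp]
    simp only [π, map_smul, map_sum, hper, Finset.smul_sum, smul_smul]
    refine Fintype.sum_equiv (Equiv.addRight (1 : ZMod p)) _ _ fun i => ?_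
    rw [Equiv.coe_addRight, ← rootPow_add, show j + -(j * (i + 1)) = -(j * i) by ring]
  have hin : ∀ i : ZMod p, ∑ j : ZMod p, rootPow (-(j * i)) • (⇑(extEndo α))^[i.val] x =
      if i = 0 then (p : Cyc p) • x else 0 := by
    intro i
    rw [← Finset.sum_smul]
    split_ifs with hi
    · subst hi
      simp [rootPow_zero]
    · rw [show ∑ j : ZMod p, rootPow (-(j * i)) = 0 from ?_, zero_smul]
      rw [← sum_rootPow_mul (neg_ne_zero.mpr hi)]
      exact Finset.sum_congr rfl fun j _ => by ring_nf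
  have hsum : ∑ j, π j = (p : Cyc p) • x := by
    simp only [π]
    rw [Finset.sum_comm, Finset.sum_congr rfl (fun i _ => hin i), Finset.sum_ite_eq',
      if_pos (Finset.mem_univ _)]
  rw [← hsum]
  exact sum_mem fun j _ => le_iSup (comp α) j (hπ j)

/-- The multiplier. -/
local notation "σs" => (((p ^ (n + 2) : ℕ)) : Cyc p)

omit [Finite G] hG hn in
theorem smul_mem_iSup_scaled (x : Cyc p ⊗[ℤ] Assoc G) : σs • x ∈ ⨆ i, scaled (p := p) n α i := by
  have h := AddSubgroup.mem_map_of_mem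
    (DistribSMul.toAddMonoidHom (Cyc p ⊗[ℤ] Assoc G) ((p ^ n * p : ℕ) : Cyc p))
    (smul_mem_iSup_comp α hα x)
  rw [AddSubgroup.map_iSup] at h
  have e : σs • x = ((p ^ n * p : ℕ) : Cyc p) • (p : Cyc p) • x := by
    rw [smul_smul, ← Nat.cast_mul, show p ^ n * p * p = p ^ (n + 2) by ring]
  rw [e]
  exact h

omit [Finite G] hG hn in
theorem sec_tmul_mem_gam_scaled (k : ℕ) : ∀ g ∈ lcsT G k,
    σs ^ (k + 1) • ((1 : Cyc p) ⊗ₜ[ℤ] sec k g) ∈ ⨆ i, gam (scaled (p := p) n α) k i := by
  induction k with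
  | zero =>
    intro g _
    rw [zero_add, pow_one]
    exact smul_mem_iSup_scaled (n := n) α hα _
  | succ k ih =>
    intro g hg
    set C := scaled (p := p) n α with hC
    have hprod : ∀ a ∈ lcsT G k, ∀ b : G,
        σs ^ (k + 2) • ((1 : Cyc p) ⊗ₜ[ℤ] sec (k + 1) ⁅a, b⁆) ∈ ⨆ i, gam C (k + 1) i := by
      intro a ha b
      have hb : b ∈ lcsT G 0 := by simp [lcsT]
      rw [show (1 : Cyc p) ⊗ₜ[ℤ] sec (k + 1) ⁅a, b⁆ =
          ⁅(1 : Cyc p) ⊗ₜ[ℤ] sec k a, (1 : Cyc p) ⊗ₜ[ℤ] sec 0 b⁆ by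
            rw [LieAlgebra.ExtendScalars.bracket_tmul, one_mul, lie_sec ha hb],
        show σs ^ (k + 2) • ⁅(1 : Cyc p) ⊗ₜ[ℤ] sec k a, (1 : Cyc p) ⊗ₜ[ℤ] sec 0 b⁆ =
          ⁅σs ^ (k + 1) • ((1 : Cyc p) ⊗ₜ[ℤ] sec k a), σs • ((1 : Cyc p) ⊗ₜ[ℤ] sec 0 b)⁆ by
            rw [ext_smul_lie, ext_lie_smul, smul_smul, ← pow_succ]]
      have hy := smul_mem_iSup_scaled (n := n) α hα ((1 : Cyc p) ⊗ₜ[ℤ] sec 0 b)
      generalize σs • ((1 : Cyc p) ⊗ₜ[ℤ] sec 0 b) = y at hy ⊢
      refine AddSubgroup.iSup_induction (fun i => gam C k i)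
        (C := fun z => ⁅z, y⁆ ∈ ⨆ i, gam C (k + 1) i)
        (ih a ha) ?_ ?_ ?_
      · intro i z hz
        refine AddSubgroup.iSup_induction (fun j => C j)
          (C := fun w => ⁅z, w⁆ ∈ ⨆ i, gam C (k + 1) i) hy ?_ ?_ ?_
        · intro j w hw
          exact le_iSup (fun i => gam C (k + 1) i) (i + j) (lie_mem_bra hz hw)
        · rw [ext_lie_zero]; exact zero_mem _
        · intro u v hu hv; rw [ext_lie_add]; exact add_mem hu hv
      · rw [ext_zero_lie]; exact zero_mem _
      · intro u v hu hv; rw [ext_add_lie]; exact add_mem hu hv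
    let S : Subgroup G :=
      { carrier := {x | x ∈ lcsT G (k + 1) ∧
          σs ^ (k + 2) • ((1 : Cyc p) ⊗ₜ[ℤ] sec (k + 1) x) ∈ ⨆ i, gam C (k + 1) i}
        one_mem' := ⟨one_mem _, by
          rw [sec_one, TensorProduct.tmul_zero, smul_zero]; exact zero_mem _⟩
        mul_mem' := fun {x y} hx hy => ⟨mul_mem hx.1 hy.1, by
          rw [sec_mul hx.1 hy.1, TensorProduct.tmul_add, smul_add]; exact add_mem hx.2 hy.2⟩
        inv_mem' := fun {x} hx => ⟨inv_mem hx.1, by
          rw [sec_inv hx.1, TensorProduct.tmul_neg, smul_neg]; exact neg_mem hx.2⟩ }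
    have hle : lcsT G (k + 1) ≤ S := by
      show (⊤ : Subgroup G).lowerCentralSeries (k + 1) ≤ S
      rw [Subgroup.lowerCentralSeries_succ, Subgroup.commutator_le]
      intro a ha b _
      refine ⟨?_, hprod a ha b⟩
      have := comm_mem_lcsT ha (show b ∈ lcsT G 0 by simp [lcsT])
      simpa using this
    exact (hle hg).2

/-- A bounded power of `γ (h + 1)` lies in `γ (h + 2)`. -/
theorem pow_mem_lcsT_succ {g : G} (hg : g ∈ lcsT G (hkk p)) :
    g ^ p ^ ((n + 2) * (hkk p + 1)) ∈ lcsT G (hkk p + 1) := by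
  have h := sec_tmul_mem_gam_scaled (n := n) α hα (hkk p) g hg
  have hb : ∀ i, gam (scaled (p := p) n α) (hkk p) i = ⊥ :=
    gam_eq_bot (isGraded_scaled hG α hα hn)
  simp only [hb, iSup_bot, AddSubgroup.mem_bot] at h
  rw [← Nat.cast_pow, Nat.cast_smul_eq_nsmul, ← TensorProduct.tmul_smul] at h
  refine mem_of_sec_eq_zero (pow_mem hg _) ?_
  rw [pow_mul p, sec_pow hg]
  exact tmul_one_injective h

end CfsgLib.AlperinFix
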