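import Mathlib
import Cfsg.Agent.AlperinFix.Count
import Cfsg.Agent.AlperinFix.Lie

/-!
# `p`-groups with an automorphism of order `p` with few fixed points

The derived length is bounded in terms of `p` and the number of fixed points.
-/

set_option autoImplicit false
set_option linter.style.haveILetI false

open scoped commutatorElement

namespace CfsgLib.AlperinFix

open CfsgLib.LieFPF (lcsT)

variable {G : Type*} [Group G]

/-- The derived length of a solvable group of order at most `B` is at most `B`. -/
theorem derivedSeries_eq_bot_of_card_le [Finite G] [Group.IsSolvable G] {B : ℕ}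
    (h : Nat.card G ≤ B) : derivedSeries G B = ⊥ := by
  have key : ∀ k, derivedSeries G k = ⊥ ∨ Nat.card (derivedSeries G k) + k ≤ Nat.card G := by
    intro k
    induction k with
    | zero => exact Or.inr (Subgroup.card_le_card_group _)
    | succ k ih =>
      rw [derivedSeries_succ]
      by_cases hk : derivedSeries G k = ⊥
      · left
        rw [hk, Subgroup.commutator_bot_left]
      · right
        have hlt := IsSolvable.commutator_lt_of_ne_bot hk
        have h1 : Nat.card ↥⁅derivedSeries G k, derivedSeries G k⁆ <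
            Nat.card (derivedSeries G k) :=
          Set.ncard_lt_ncard (SetLike.coe_ssubset_coe.mpr hlt) (Set.toFinite _)
        have h2 := ih.resolve_left hk
        omega
  refine (key B).resolve_right fun hB => ?_
  have : 0 < Nat.card (derivedSeries G B) := Nat.card_pos
  omega

/-- Once inside a subgroup, the derived series descends with that of the subgroup. -/
theorem derivedSeries_add_le (H : Subgroup G) {k : ℕ} (h : derivedSeries G k ≤ H) (j : ℕ) :
    derivedSeries G (k + j) ≤ (derivedSeries H j).map H.subtype := by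
  induction j with
  | zero =>
    rw [derivedSeries_zero, ← MonoidHom.range_eq_map, Subgroup.range_subtype]
    exact h
  | succ j ih =>
    rw [← add_assoc, derivedSeries_succ, derivedSeries_succ, Subgroup.map_commutator]
    exact Subgroup.commutator_mono ih ih

/-- Derived lengths add up in extensions. -/
theorem derivedSeries_eq_bot_of_quotient (N : Subgroup G) [N.Normal] {a b : ℕ}
    (ha : derivedSeries (G ⧸ N) a = ⊥) (hb : derivedSeries N b = ⊥) :
    derivedSeries G (a + b) = ⊥ := by
  have h1 : derivedSeries G a ≤ N := by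
    have h := map_derivedSeries_le_derivedSeries (QuotientGroup.mk' N) a
    rwa [ha, le_bot_iff, Subgroup.map_eq_bot_iff, QuotientGroup.ker_mk'] at h
  have := derivedSeries_add_le N h1 b
  rwa [hb, Subgroup.map_bot, le_bot_iff] at this

/-- The exponent of the powers that the kernel sees. -/
def fixExp (p n : ℕ) : ℕ := (n + 2) * (hkk p + 1)

/-- The degree of the symmetric group. -/
def fixDeg (p n : ℕ) : ℕ := (p ^ n) ^ (p * (fixExp p n + 1))

/-- The bound on the index of the kernel. -/
def fixIndex (p n : ℕ) : ℕ :=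
  (fixDeg p n).factorial ^ ((fixDeg p n).factorial ^ ((p ^ n) ^ p))

/-- The bound on the derived length of a `p`-group. -/
def pBound (p n : ℕ) : ℕ := fixIndex p n + (hkk p + 1)

variable {p n : ℕ} [hp : Fact p.Prime] [Finite G]

theorem card_frattini_quotient_le (hG : IsPGroup p G) {α : MulAut G} (hα : α ^ p = 1)
    (hn : Nat.card (fixSub α) ≤ p ^ n) : Nat.card (G ⧸ frattini G) ≤ (p ^ n) ^ p := by
  haveI := frattini_characteristic (G := G)
  have hi : Invar α (frattini G) := invar_of_characteristic α _
  have h := card_le_of_abelian (quot_pow_eq_one hα _ hi)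
    ((card_fixSub_quot_le α _ hi).trans hn) ⊤ (invar_top _)
    (fun x _ y _ => CfsgLib.PGroup.frattini_quotient_comm hG x y) (e := 1)
    (fun x _ => by rw [pow_one]; exact CfsgLib.PGroup.frattini_quotient_pow hG x)
  rwa [Nat.card_congr Subgroup.topEquiv.toEquiv, mul_one] at h

/-- **Alperin**, for `p`-groups. -/
theorem derivedSeries_eq_bot_of_isPGroup (hG : IsPGroup p G) (α : MulAut G) (hα : α ^ p = 1)
    (hn : Nat.card (fixSub α) ≤ p ^ n) : derivedSeries G (pBound p n) = ⊥ := by
  haveI := hG.isNilpotent
  set m := fixDeg p n with hm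
  set W := kerAll G m with hW
  have hWi : Invar α W := invar_kerAll α m
  -- the index
  have hindex : W.index ≤ fixIndex p n := by
    obtain ⟨r, hr⟩ := IsPGroup.iff_card.mp (hG.to_quotient (frattini G))
    obtain ⟨x, hx⟩ := CfsgLib.PGroup.exists_fin_gen_of_frattini_index (P := G) (p := p) (r := r)
      (by rw [Subgroup.index_eq_card]; exact hr)
    have hr' : r ≤ (p ^ n) ^ p :=
      (Nat.lt_pow_self hp.out.one_lt).le.trans (hr ▸ card_frattini_quotient_le hG hα hn)
    exact (index_kerAll_le x hx m).trans
      (Nat.pow_le_pow_right m.factorial_pos (Nat.pow_le_pow_right m.factorial_pos hr'))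
  -- the term of the lower central series
  set M := (lcsT W (hkk p)).map W.subtype with hM
  have hMW : M ≤ W := Subgroup.map_subtype_le _
  have hMi : Invar α M := by
    rintro _ ⟨y, hy, rfl⟩
    exact ⟨restr α W hWi y, CfsgLib.LieFPF.apply_mem_lcsT _ hy, rfl⟩
  have hMc : ⁅M, W⁆ = (lcsT W (hkk p + 1)).map W.subtype := by
    rw [show lcsT W (hkk p + 1) = ⁅lcsT W (hkk p), (⊤ : Subgroup W)⁆ from
      Subgroup.lowerCentralSeries_succ _ _, Subgroup.map_commutator, ← hM,
      ← MonoidHom.range_eq_map, Subgroup.range_subtype]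
  -- the powers
  set K := powSub M (p ^ fixExp p n) with hK
  have hKc : K ≤ ⁅M, W⁆ := by
    rw [hMc, hK, powSub, Subgroup.closure_le]
    rintro _ ⟨_, ⟨y, hy, rfl⟩, rfl⟩
    exact ⟨y ^ p ^ fixExp p n, pow_mem_lcsT_succ (hG.to_subgroup W) (restr α W hWi)
      (restr_pow_eq_one hα W hWi) ((card_fixSub_restr_le α W hWi).trans hn) hy, map_pow _ _ _⟩
  have hcK : ⁅M, W⁆ ≤ (frattini K).map K.subtype := by
    haveI : M.Normal := by rw [hM]; infer_instance
    refine (comm_le_pow hG hα hn (e := fixExp p n + 1) le_rfl M hMi hMW).trans ?_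
    rw [powSub, Subgroup.closure_le]
    rintro _ ⟨x, hx, rfl⟩
    refine ⟨⟨x ^ p ^ fixExp p n, pow_mem_powSub hx⟩ ^ p,
      CfsgLib.PGroup.pow_prime_mem_frattini (hG.to_subgroup K) _, ?_⟩
    show (x ^ p ^ fixExp p n) ^ p = x ^ p ^ (fixExp p n + 1)
    rw [← pow_mul, pow_succ]
  have hKbot : K = ⊥ := by
    by_contra hne
    haveI : Nontrivial K := (Subgroup.nontrivial_iff_ne_bot K).mpr hne
    refine CfsgLib.PGroup.frattini_ne_top (P := K) (eq_top_iff.mpr fun z _ => ?_)
    obtain ⟨w, hw, hwz⟩ := (hKc.trans hcK) z.2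
    exact (Subtype.ext hwz : w = z) ▸ hw
  have hnil : lcsT W (hkk p + 1) = ⊥ := by
    have h : ⁅M, W⁆ ≤ ⊥ := hKbot ▸ hcK.trans (Subgroup.map_subtype_le _)
    rw [hMc, le_bot_iff] at h
    exact (Subgroup.map_eq_bot_iff_of_injective _ W.subtype_injective).mp h
  refine derivedSeries_eq_bot_of_quotient W (derivedSeries_eq_bot_of_card_le ?_) ?_
  · rw [← Subgroup.index_eq_card]
    exact hindex
  · rw [eq_bot_iff, ← hnil]
    exact Subgroup.derived_le_lower_central _

end CfsgLib.AlperinFix
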